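import Cfsg.Agent.Holt.COR2

/-!
# Corollaries of Holt's theorem: S1795 modulo alternating groups of even type
-/

set_option linter.unusedSectionVars false
set_option autoImplicit false

namespace CF.Holt.Cor
open MulAction Subgroup Cfsg CF.BG CF.Bender CF.ZD CF.Ab2 CF.Sig CF.Perm
open scoped commutatorElement

universe u

/-- an involution of `A_n` with a component `A_m` in its centraliser -/
theorem exists_comp {n m k : ℕ} (h : n = 4 * (k + 1) + m) (h5 : 5 ≤ m) :
    ∃ t : alternatingGroup (Fin n), orderOf t = 2 ∧ ∃ K : Subgroup (centralizer {t}),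
      IsComponent K ∧ Nonempty (K ≃* alternatingGroup (Fin m)) := by
  obtain ⟨g, hg⟩ := (Equiv.Perm.exists_with_cycleType_iff (Fin n)
    (m := Multiset.replicate (2 * (k + 1)) 2)).2 ⟨by simp; omega, fun a ha => by
      rw [Multiset.eq_of_mem_replicate ha]⟩
  have o : orderOf g = 2 := by
    rw [← Equiv.Perm.lcm_cycleType, hg]
    refine Nat.dvd_antisymm (Multiset.lcm_dvd.2 fun a ha => by
      rw [Multiset.eq_of_mem_replicate ha]) (Multiset.dvd_lcm (Multiset.mem_replicate.2 ⟨by omega, rfl⟩))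
  have sg : g ∈ alternatingGroup (Fin n) := by
    rw [Equiv.Perm.mem_alternatingGroup, Equiv.Perm.sign_of_cycleType, hg]
    exact Even.neg_one_pow ⟨3 * (k + 1), by
      rw [Multiset.sum_replicate, Multiset.card_replicate, smul_eq_mul]; ring⟩
  have sc : g.support.card = 4 * (k + 1) := by
    rw [← Equiv.Perm.sum_cycleType, hg]; simp; omega
  let t : alternatingGroup (Fin n) := ⟨g, sg⟩
  refine ⟨t, (orderOf_mk _ _).trans o, ?_⟩
  let f : centralizer {t} →* Equiv.Perm (Fin n) := (Subgroup.subtype _).comp (Subgroup.subtype _)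
  have hf : Function.Injective f := (subtype_injective _).comp (subtype_injective _)
  have c : ∀ x, Commute (f x) g := fun x =>
    congrArg Subtype.val (mem_centralizer_singleton_iff.1 x.2)
  set s := g.supportᶜ with hs'
  have cs : s.card = m := by rw [hs', Finset.card_compl, sc, Fintype.card_fin]; omega
  have hs : ∀ x, f x ∈ setStab s := fun x => setStab_compl.ge (mem_setStab_support (c x))
  haveI hD : ((altOn s).comap f).Normal := ⟨fun x hx g => by
    rw [mem_comap, map_mul, map_mul, map_inv]; exact conj_mem_altOn (hs g) hx⟩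
  have hr : altOn s ≤ f.range := fun x hx => ⟨⟨⟨x, hx.2⟩, mem_centralizer_singleton_iff.2
    (Subtype.ext (commute_of_symOn disjoint_compl_left hx.1 (mem_symOn_iff.2 le_rfl)).eq)⟩, rfl⟩
  obtain ⟨e⟩ := nonempty_altOn_equiv cs
  have e' : (altOn s).comap f ≃* altOn s :=
    (equivMapOfInjective _ f hf).trans (MulEquiv.subgroupCongr (map_comap_eq_self hr))
  exact ⟨_, ⟨hD.isSubnormal, qs_of_mulEquiv (isQuasisimple_altOn (cs ▸ h5)).2 e'.symm⟩, ⟨e'.trans e⟩⟩

variable {G : Type u} [Group G] [Finite G]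

theorem sz_of_se {M : Subgroup G} (S : Sylow 2 G) (se : IsStronglyEmbedded M)
    (hSM : (S : Subgroup G) ≤ M) (ha : ControlsFusion M S) {z : G} (hz : z ∈ M) (iv : Iv z) :
    IsStronglyZEmbedded (conjugatesOf z) M := by
  haveI : Fact (Nat.Prime 2) := ⟨p2⟩
  have k : ∀ t ∈ M, Iv t → ∀ g, g * t * g⁻¹ ∈ M → g ∈ M := fun t ht i g e => by
    by_contra hg
    refine i.conj g |>.not_mem (se.2.2 g hg) ⟨e, t, ht, rfl⟩
  have zi : ∀ t ∈ conjugatesOf z, Iv t := fun t ht => by
    obtain ⟨g, rfl⟩ := isConj_iff.1 ht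
    exact iv.conj g
  refine ⟨se.1, ⟨z, IsConj.refl z, hz⟩, fun t ht hM g hg => k t hM (zi t ht) g ?_, ?_,
    fun H _ ⟨t, ht, hH, hM⟩ nle => ?_⟩
  · rwa [mem_cent1.1 hg, mul_inv_cancel_right]
  · obtain ⟨T, hT⟩ := ((syl_sylow_top S).of_le hSM le_top).exists_sylow
    exact ⟨T, hT ▸ ha⟩
  · have n : ¬ closure (conjugatesOf z ∩ H) ≤ M := fun l => nle fun g hg => k t hM (zi t ht) g
      (l (subset_closure ⟨ht.trans (isConj_iff.2 ⟨g, rfl⟩), mul_mem (mul_mem hg hH) (inv_mem hg)⟩))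
    refine ⟨n, spe_iff_se.2 ?_⟩
    rw [inf_subgroupOf_left]
    exact se_sub n (subset_closure ⟨ht, hH⟩) hM (zi t ht) fun s _ hs i g _ e => k s hs i g e

theorem s1795' (h : ∀ n, Main.{u} n)
    (ev : ∀ k, G ≃* alternatingGroup (Fin (4 * (k + 1) + 9)) → ¬ IsOfEvenType G)
    [IsSimpleGroup G] (hG : ¬ IsMulCommutative G) (hE : Cfsg.IsOfEvenType G) (S : Sylow 2 G)
    (M : Subgroup G) (hMp : M ≠ ⊤) (hSM : (S : Subgroup G) ≤ M) (ha : Cfsg.ControlsFusion M S)
    (z : G) (hzS : z ∈ S) (hzc : ∀ s ∈ (S : Subgroup G), s * z = z * s) (hz2 : orderOf z = 2)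
    (hb : Subgroup.centralizer ({z} : Set G) ≤ M) :
    Cfsg.IsStronglyZEmbedded (conjugatesOf z) M ∨ Nonempty (G ≃* alternatingGroup (Fin 9)) := by
  haveI : Fact (Nat.Prime 2) := ⟨p2⟩
  have iv := iv_iff.2 hz2
  rcases core1 h hG hMp ⟨hz2, S, hzS, hzc⟩ (hSM hzS) (fus_of hb fun g e => by
    obtain ⟨m, hm, l⟩ := ((syl_sylow_top S).of_le hSM le_top).syl_cj_le (zp_le e)
      (p2_zp (iv_e2 (iv.conj g)))
    have l' : m * g * z * (m * g)⁻¹ ∈ (S : Subgroup G) := by
      have := l (cj_zpowers m _ ▸ mem_zpowers _)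
      simpa only [mul_inv_rev, mul_assoc] using this
    obtain ⟨x, hx, e⟩ := ha {z} (m * g) (by simpa using hzS) (by rintro _ ⟨_, rfl, rfl⟩; exact l')
    simp only [Set.image_singleton, Set.singleton_eq_singleton_iff] at e
    refine ⟨m⁻¹ * x, mul_mem (inv_mem hm) hx, ?_⟩
    calc _ = m⁻¹ * (x * z * x⁻¹) * m := by group
      _ = _ := by rw [← e]; group) with se | ⟨n, a, b, ⟨e⟩, -⟩
  · exact .inl (sz_of_se S se hSM ha (hSM hzS) iv)
  · by_cases c : n = 9
    · exact .inr ⟨c ▸ e⟩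
    · obtain ⟨k, rfl⟩ : ∃ k, n = 4 * (k + 1) + 9 := ⟨(n - 13) / 4, by omega⟩
      exact (ev k e hE).elim

end CF.Holt.Cor
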